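import Cfsg.Agent.H17.Core
import Cfsg.Agent.H43.FischerTwins

/-!
A class of involutions whose members see a double cover of a group of type M(22) among their
commuting partners is a set of 3-transpositions.
-/

set_option autoImplicit false

namespace Cfsg.Agent.H24.Fi23

open Cfsg.Agent.H43.FischerTwins

variable {G : Type*} [Group G] {D : Set G}

/-- What a member sees among its partners. -/
structure Seen (D : Set G) (x : G) : Prop where
  braid : ∀ p ∈ Sset D x, ∀ q ∈ Sset D x, ¬ Commute p q → p * q * p = q * p * q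
  pair : ∀ p ∈ Sset D x, ∀ q ∈ Sset D x, ∀ b ∈ Sset D x, ∀ c ∈ Sset D x, Commute p q → p ≠ q →
    Commute b c → p * q = b * c → p = b ∨ p = c
  out : ∀ p ∈ Sset D x, ∀ q ∈ Sset D x, Commute p q → p ≠ q → x * p * q ∉ D
  pair_out : ∀ p ∈ Sset D x, x * p ∉ D
  triple_pair : ∀ a ∈ Sset D x, ∀ b ∈ Sset D x, ∀ e ∈ Sset D x, ∀ p ∈ Sset D x, ∀ q ∈ Sset D x,
    Commute a b → Commute a e → Commute b e → a ≠ b → a ≠ e → b ≠ e →
    Commute p q → p ≠ q → (∀ r ∈ ({a, b, e} : Set G), Commute p r ∧ Commute q r) →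
    x * (a * b * e) ≠ p * q
  triple_triple : ∀ a ∈ Sset D x, ∀ b ∈ Sset D x, ∀ e ∈ Sset D x,
    ∀ y ∈ Sset D x, ∀ p ∈ Sset D x, ∀ q ∈ Sset D x,
    Commute a b → Commute a e → Commute b e → a ≠ b → a ≠ e → b ≠ e →
    Commute y p → Commute y q → Commute p q → y ≠ p → y ≠ q → p ≠ q →
    a * b * e = y * p * q → Commute y a
  common : ∀ b ∈ Sset D x, ∀ e ∈ Sset D x, Commute b e → b ≠ e →
    ∃ r ∈ Sset D x, r ∈ Sset D b ∧ r ∈ Sset D e
  hexad : ∀ b ∈ Sset D x, ∃ x₁ x₂ x₃ x₄ x₅ : G,
    (∀ r ∈ ({x₁, x₂, x₃, x₄, x₅} : Set G), r ∈ Sset D x ∧ r ∈ Sset D b) ∧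
    x₁ * x₂ * x₃ * x₄ * x₅ = x * b

/-- A class of involutions with this picture around each member. -/
structure Loc (D : Set G) : Prop where
  conj : ∀ g : G, ∀ d ∈ D, g * d * g⁻¹ ∈ D
  ord : ∀ d ∈ D, orderOf d = 2
  seen : ∀ x ∈ D, Seen D x
  two : ∀ P : Subgroup G, IsPGroup 2 P → ∃ x ∈ D, ∀ g ∈ P, Commute g x

theorem sset_symm {x y : G} (hx : x ∈ D) (hy : y ∈ Sset D x) : x ∈ Sset D y :=
  ⟨hx, hy.2.1.symm, hy.2.2.symm⟩

/-- Two involutions with product of 2-power order generate a 2-group. -/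
theorem pgroup_closure_pair {x y : G} (hx : x * x = 1) (hy : y * y = 1) {a : ℕ}
    (h : (x * y) ^ 2 ^ a = 1) : IsPGroup 2 ↥(Subgroup.closure ({x, y} : Set G)) := by
  haveI : Fact (Nat.Prime 2) := ⟨Nat.prime_two⟩
  obtain ⟨N, hN⟩ : ∃ N, N = Subgroup.zpowers (x * y) := ⟨_, rfl⟩
  have hNp : IsPGroup 2 ↥N := by
    subst hN
    intro g
    obtain ⟨k, hk⟩ := Subgroup.mem_zpowers_iff.1 g.2
    refine ⟨a, Subtype.ext ?_⟩
    rw [Subgroup.coe_pow, ← hk, ← zpow_natCast, ← zpow_mul, mul_comm, zpow_mul, zpow_natCast, h,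
      one_zpow]
    rfl
  have hXp : IsPGroup 2 ↥(Subgroup.zpowers x) := by
    intro g
    obtain ⟨k, hk⟩ := Subgroup.mem_zpowers_iff.1 g.2
    refine ⟨1, Subtype.ext ?_⟩
    rw [Subgroup.coe_pow, ← hk, ← zpow_natCast, ← zpow_mul, mul_comm, zpow_mul]
    norm_num
    rw [pow_two, hx, one_zpow]
  have hx' : x⁻¹ = x := inv_eq_of_mul_eq_one_right hx
  have hy' : y⁻¹ = y := inv_eq_of_mul_eq_one_right hy
  have hcon : x * (x * y) * x⁻¹ = (x * y)⁻¹ := by
    rw [mul_inv_rev, hy', hx', ← mul_assoc x x y, hx, one_mul]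
  have hnorm : Subgroup.zpowers x ≤ Subgroup.normalizer (N : Set G) := by
    rw [Subgroup.zpowers_le, Subgroup.mem_normalizer_iff]
    intro n
    have key : ∀ m ∈ N, x * m * x⁻¹ ∈ N := fun m hm => by
      rw [hN] at hm ⊢
      obtain ⟨k, rfl⟩ := Subgroup.mem_zpowers_iff.1 hm
      rw [← conj_zpow, hcon]
      exact zpow_mem (inv_mem (Subgroup.mem_zpowers _)) k
    refine ⟨key n, fun hn => ?_⟩
    have e : x * (x * n * x⁻¹) * x⁻¹ = n := by
      rw [hx', ← mul_assoc, ← mul_assoc, hx, one_mul, mul_assoc, hx, mul_one]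
    exact e ▸ key _ hn
  refine (hXp.to_sup_of_normal_right' hNp hnorm).to_le ?_
  rw [Subgroup.closure_le]
  rintro w (rfl | rfl)
  · exact Subgroup.mem_sup_left (Subgroup.mem_zpowers w)
  · have e : x * (x * w) = w := by rw [← mul_assoc, hx, one_mul]
    rw [SetLike.mem_coe, ← e]
    exact mul_mem (Subgroup.mem_sup_left (Subgroup.mem_zpowers x))
      (Subgroup.mem_sup_right (hN ▸ Subgroup.mem_zpowers _))

/-- An odd power moves an involution to a conjugate. -/
theorem mul_pow_odd {x y : G} (hx : x * x = 1) (hy : y * y = 1) (m : ℕ) :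
    x * (x * y) ^ (2 * m + 1) = ((x * y) ^ m)⁻¹ * y * (x * y) ^ m := by
  induction m with
  | zero => simp [← mul_assoc, hx]
  | succ m ih =>
    have hx' : x⁻¹ = x := inv_eq_of_mul_eq_one_right hx
    have hy' : y⁻¹ = y := inv_eq_of_mul_eq_one_right hy
    rw [show 2 * (m + 1) + 1 = (2 * m + 1) + 1 + 1 by ring, pow_succ, pow_succ', ← mul_assoc x,
      ← mul_assoc x]
    calc x * (x * y) * (x * y) ^ (2 * m + 1) * (x * y)
        = y * x * (x * (x * y) ^ (2 * m + 1)) * (x * y) := by
          simp only [← mul_assoc, hx, one_mul]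
          rw [mul_assoc y x x, hx, mul_one]
      _ = y * x * (((x * y) ^ m)⁻¹ * y * (x * y) ^ m) * (x * y) := by rw [ih]
      _ = _ := by
        simp only [pow_succ, mul_inv_rev, hx', hy', mul_assoc]

variable [Finite G]

namespace Loc

variable (hL : Loc D)
include hL

theorem sq {x : G} (hx : x ∈ D) : x * x = 1 := H17.mul_self_of_orderOf (hL.ord x hx)

theorem inv {x : G} (hx : x ∈ D) : x⁻¹ = x := H17.inv_of_orderOf (hL.ord x hx)

theorem ne_one {x : G} (hx : x ∈ D) : x ≠ 1 := H17.ne_one_of_orderOf (hL.ord x hx)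

/-- Members with product of 2-power order commute. -/
theorem commute_of_two {x y : G} (hx : x ∈ D) (hy : y ∈ D) {a : ℕ} (h : (x * y) ^ 2 ^ a = 1) :
    Commute x y := by
  by_contra hc
  obtain ⟨d, hd, hP⟩ := hL.two _ (pgroup_closure_pair (hL.sq hx) (hL.sq hy) h)
  have cx : Commute x d := hP x (Subgroup.subset_closure (Or.inl rfl))
  have cy : Commute y d := hP y (Subgroup.subset_closure (Or.inr rfl))
  have h1 : x ≠ d := fun e => hc (e ▸ cy.symm)
  have h2 : y ≠ d := fun e => hc (e ▸ cx)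
  have hb := (hL.seen d hd).braid x ⟨hx, h1, cx.symm⟩ y ⟨hy, h2, cy.symm⟩ hc
  have h3 : (x * y) ^ 3 = 1 := by
    have e : (x * y) ^ 3 = x * y * x * (y * x * y) := by simp [pow_succ, mul_assoc]
    rw [e, ← hb]
    simp only [mul_assoc]
    rw [← mul_assoc x x, hL.sq hx, one_mul, ← mul_assoc y y, hL.sq hy, one_mul, hL.sq hx]
  have h1' : x * y = 1 := by
    have h4 := pow_gcd_eq_one.mpr ⟨h3, h⟩
    rwa [show Nat.gcd 3 (2 ^ a) = 1 from Nat.Coprime.pow_right a (by norm_num), pow_one] at h4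
  exact hc (eq_inv_of_mul_eq_one_left h1' ▸ (Commute.refl y).inv_left)

/-- Two members that do not commute are conjugate or have a product of order twice an odd
number. -/
theorem cases_pair {x y : G} (hx : x ∈ D) (hy : y ∈ D) (hxy : ¬ Commute x y) :
    (∃ g : G, g * x * g⁻¹ = y ∧ ∀ u, Commute u x → Commute u y → Commute u g) ∨
    ∃ e g g' : G, e ∈ Sset D x ∧ Commute y (x * e) ∧ g * y * g⁻¹ = e ∧
      g' * x * g'⁻¹ = x * e * y ∧
      (∀ u, Commute u x → Commute u y → Commute u g ∧ Commute u e) := by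
  have hxx := hL.sq hx
  have hyy := hL.sq hy
  obtain ⟨r, hr⟩ : ∃ r, r = x * y := ⟨_, rfl⟩
  obtain ⟨n, hn⟩ : ∃ n, n = orderOf r := ⟨_, rfl⟩
  have hrn : r ^ n = 1 := hn ▸ pow_orderOf_eq_one r
  have hn0 : 0 < n := hn ▸ orderOf_pos r
  have hxr : x * r = r⁻¹ * x := by
    rw [hr, mul_inv_rev, hL.inv hx, hL.inv hy, ← mul_assoc, hxx, one_mul, mul_assoc, hxx, mul_one]
  have hcr : ∀ u, Commute u x → Commute u y → Commute u r := fun u h1 h2 => hr ▸ h1.mul_right h2
  have hxrk : ∀ k : ℕ, x * r ^ k = (r ^ k)⁻¹ * x := fun k => by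
    have : SemiconjBy x r r⁻¹ := hxr
    simpa [SemiconjBy, inv_pow] using (this.pow_right k).eq
  rcases Nat.even_or_odd n with hev | ⟨m, hm⟩
  · obtain ⟨k, hk⟩ := hev
    have hk2 : n = 2 * k := by omega
    rcases Nat.even_or_odd k with ⟨j, hj⟩ | ⟨m, hm⟩
    · -- order divisible by four
      exfalso
      obtain ⟨a, o, ho, hao⟩ := Nat.exists_eq_two_pow_mul_odd hn0.ne'
      obtain ⟨i, rfl⟩ := ho
      obtain ⟨y', hy'⟩ : ∃ y', y' = x * r ^ (2 * i + 1) := ⟨_, rfl⟩
      have hy'D : y' ∈ D := by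
        rw [hy', hr, mul_pow_odd hxx hyy]
        simpa using hL.conj ((x * y) ^ i)⁻¹ y hy
      have hxy' : x * y' = r ^ (2 * i + 1) := by rw [hy', ← mul_assoc, hxx, one_mul]
      have hc : Commute x y' := hL.commute_of_two hx hy'D (a := a) (by
        rw [hxy', ← pow_mul, mul_comm, ← hao, hrn])
      have h2 : r ^ (2 * (2 * i + 1)) = 1 := by
        rw [mul_comm, pow_mul, ← hxy', pow_two, hc.symm.mul_mul_mul_comm, hxx, hL.sq hy'D, one_mul]
      have hdvd : n ∣ 2 * (2 * i + 1) := hn ▸ orderOf_dvd_of_pow_eq_one h2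
      have h4 : 4 ∣ n := ⟨j, by omega⟩
      have := h4.trans hdvd
      omega
    · -- order twice an odd number
      refine Or.inr ?_
      obtain ⟨w, hw⟩ : ∃ w, w = r ^ k := ⟨_, rfl⟩
      have hwi : w⁻¹ = w := inv_eq_of_mul_eq_one_right (by rw [hw, ← pow_add, ← hk, hrn])
      have hwx : Commute w x := by
        have := hxrk k
        rw [← hw, hwi] at this
        exact this.symm
      have hwr : Commute w r := hw ▸ (Commute.refl r).pow_left k
      have hwy : Commute w y := by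
        have e : y = x * r := by rw [hr, ← mul_assoc, hxx, one_mul]
        exact e ▸ hwx.mul_right hwr
      have hw1 : w ≠ 1 := fun h => by
        have : n ≤ k := Nat.le_of_dvd (by omega)
          (hn ▸ orderOf_dvd_of_pow_eq_one (x := r) (hw ▸ h))
        omega
      have he : x * w = ((x * y) ^ m)⁻¹ * y * (x * y) ^ m := by
        rw [hw, hm, hr, mul_pow_odd hxx hyy]
      have heD : x * w ∈ D := by rw [he]; simpa using hL.conj ((x * y) ^ m)⁻¹ y hy
      have hxe : x * (x * w) = w := by rw [← mul_assoc, hxx, one_mul]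
      refine ⟨x * w, ((x * y) ^ m)⁻¹, r ^ m, ⟨heD, ?_, ?_⟩, ?_, ?_, ?_, fun u h1 h2 => ?_⟩
      · exact fun h => hw1 (by simpa using h)
      · exact (Commute.refl x).mul_right hwx.symm
      · rw [hxe]; exact hwy.symm
      · rw [he, inv_inv]
      · have e : x * (r ^ m)⁻¹ = r ^ m * x := by
          rw [mul_inv_eq_iff_eq_mul, mul_assoc, hxrk, mul_inv_cancel_left]
        rw [hxe, mul_assoc, e, ← mul_assoc, ← pow_add]
        have hy2 : y = r⁻¹ * x := by rw [← hxr, hr, ← mul_assoc, hxx, one_mul]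
        rw [hy2, ← mul_assoc, hw, show k = m + m + 1 by omega, pow_succ, mul_inv_cancel_right]
      · exact ⟨((h1.mul_right h2).pow_right m).inv_right,
          h1.mul_right (hw ▸ (hcr u h1 h2).pow_right k)⟩
  · refine Or.inl ⟨r ^ m * x, ?_, fun u h1 h2 => ((hcr u h1 h2).pow_right m).mul_right h1⟩
    rw [mul_inv_rev, hL.inv hx]
    calc r ^ m * x * x * (x * (r ^ m)⁻¹) = r ^ m * (x * x) * (x * (r ^ m)⁻¹) := by group
      _ = r ^ m * (x * (r ^ m)⁻¹) := by rw [hxx, mul_one]
      _ = r ^ m * r ^ m * x := by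
        have : x * (r ^ m)⁻¹ = r ^ m * x := by
          rw [mul_inv_eq_iff_eq_mul, mul_assoc, hxrk, mul_inv_cancel_left]
        rw [this, mul_assoc]
      _ = r⁻¹ * x := by
        congr 1
        rw [eq_inv_iff_mul_eq_one, ← pow_add, ← pow_succ, show m + m + 1 = n by omega, hrn]
      _ = y := by rw [hr, mul_inv_rev, hL.inv hx, hL.inv hy, mul_assoc, hxx, mul_one]

/-- A member centralising a product of two commuting members commutes with both. -/
theorem pair_comm {a b y : G} (ha : a ∈ D) (hb : b ∈ Sset D a) (hy : y ∈ D)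
    (h : Commute y (a * b)) : Commute y a ∧ Commute y b := by
  have haa := hL.sq ha
  have hyy := hL.sq hy
  have other : Commute y a → Commute y b := fun hc => by
    have := hc.inv_right.mul_right h
    rwa [inv_mul_cancel_left] at this
  suffices Commute y a from ⟨this, other this⟩
  have hub : ∀ r : G, Commute r a → Commute r b → Commute r (a * b) := fun r h1 h2 =>
    h1.mul_right h2
  have hu2 : a * b * (a * b) = 1 := by
    rw [hb.2.2.symm.mul_mul_mul_comm, haa, hL.sq hb.1, one_mul]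
  have hu1 : a * b ≠ 1 := fun e => hb.2.1 (by
    rw [← hL.inv ha]; exact eq_inv_of_mul_eq_one_right e)
  -- the case of a second pair with the same product
  have alpha : ∀ a b : G, a ∈ D → b ∈ Sset D a → ∀ y ∈ D, Commute y (a * b) →
      a * b * y ∈ D → Commute y a := by
    intro a b ha hb y hy h hD
    by_contra hc
    have haa := hL.sq ha
    have hba : Commute b a := hb.2.2.symm
    have hnx : ∀ x, x ∈ Sset D a → x ∈ Sset D b → ¬ Commute y x := by
      intro x hxa hxb hcx
      have hx := hxa.1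
      have hSx := hL.seen x hx
      have hax : a ∈ Sset D x := sset_symm ha hxa
      have hbx : b ∈ Sset D x := sset_symm hb.1 hxb
      have hxu : Commute x (a * b) := hxa.2.2.symm.mul_right hxb.2.2.symm
      by_cases hyx : y = x
      · exact hc (hyx ▸ hxa.2.2.symm)
      have hyS : y ∈ Sset D x := ⟨hy, hyx, hcx.symm⟩
      by_cases hux : a * b * y = x
      · refine hSx.out a hax b hbx hba.symm hb.2.1.symm ?_
        have : y = x * a * b := by
          rw [mul_assoc, hxu.eq, ← hux, ← mul_assoc, hba.mul_mul_mul_comm, haa, hL.sq hb.1,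
            one_mul, one_mul]
        exact this ▸ hy
      have huS : a * b * y ∈ Sset D x := ⟨hD, hux, hxu.mul_right hcx.symm⟩
      have hyu : Commute y (a * b * y) := h.mul_right (Commute.refl y)
      have hne : y ≠ a * b * y := fun e => hb.2.1 (by
        rw [← hL.inv ha]; exact eq_inv_of_mul_eq_one_right (by simpa using e.symm))
      have he : y * (a * b * y) = a * b := by
        rw [← mul_assoc, h.eq, mul_assoc, hL.sq hy, mul_one]
      rcases hSx.pair y hyS _ huS a hax b hbx hyu hne hba.symm he with e | e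
      · exact hc (e ▸ Commute.refl a)
      · exact hc (e ▸ hba)
    have hxa' : ∀ x, x ∈ Sset D a → x ∈ Sset D b → Commute y (x * a) := by
      intro x hxa hxb
      have hxu : Commute x (a * b) := hxa.2.2.symm.mul_right hxb.2.2.symm
      rcases hL.cases_pair hxa.1 hy (fun e => hnx x hxa hxb e.symm) with
        ⟨g, hg, hgu⟩ | ⟨e, g, g', he, hye, hge, -, hgu⟩
      · exfalso
        refine (hL.seen x hxa.1).out a (sset_symm ha hxa) b (sset_symm hb.1 hxb) hba.symm
          hb.2.1.symm ?_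
        have hgc := (hgu _ hxu.symm h.symm).eq
        have e : x * a * b = g⁻¹ * (a * b * y) * g⁻¹⁻¹ := by
          rw [inv_inv, mul_assoc x, hxu.eq, ← hg]
          simp only [← mul_assoc]
          rw [mul_assoc g⁻¹ a b, mul_assoc g⁻¹ (a * b) g, hgc, inv_mul_cancel_left]
          group
        exact e ▸ hL.conj g⁻¹ _ hD
      · obtain ⟨hug, hue⟩ := hgu _ hxu.symm h.symm
        have hxx' := hxa.1
        have hueD : a * b * e ∈ D := by
          have e1 : a * b * e = g * (a * b * y) * g⁻¹ := by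
            rw [← hge, ← mul_assoc (a * b), ← mul_assoc (a * b), hug.eq]
            group
          exact e1 ▸ hL.conj g _ hD
        have hSx := hL.seen x hxx'
        have hux : a * b * e ≠ x := fun e1 => by
          refine hSx.out a (sset_symm ha hxa) b (sset_symm hb.1 hxb) hba.symm hb.2.1.symm ?_
          have : x * a * b = e := by
            rw [mul_assoc, hxu.eq, ← e1, ← mul_assoc, hba.mul_mul_mul_comm, haa, hL.sq hb.1,
              one_mul, one_mul]
          exact this ▸ he.1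
        have huS : a * b * e ∈ Sset D x := ⟨hueD, hux, hxu.mul_right he.2.2⟩
        have hce : Commute e (a * b * e) := hue.symm.mul_right (Commute.refl e)
        have hne : e ≠ a * b * e := fun e1 => hb.2.1 (by
          rw [← hL.inv ha]; exact eq_inv_of_mul_eq_one_right (by simpa using e1.symm))
        have hee : e * (a * b * e) = a * b := by
          rw [← mul_assoc, hue.symm.eq, mul_assoc, hL.sq he.1, mul_one]
        rcases hSx.pair e he _ huS a (sset_symm ha hxa) b (sset_symm hb.1 hxb) hce hne hba.symm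
          hee with e1 | e1
        · rwa [e1] at hye
        · rw [e1] at hye
          have e2 : x * a = x * b * (a * b) := by
            rw [hb.2.2.eq, mul_assoc, ← mul_assoc b b, hL.sq hb.1, one_mul]
          exact e2 ▸ hye.mul_right h
    obtain ⟨x₁, x₂, x₃, x₄, x₅, hX, hp⟩ := (hL.seen a ha).hexad b hb
    have hX' : ∀ r ∈ ({x₁, x₂, x₃, x₄, x₅} : Set G), Commute y (r * a) ∧ Commute r a := fun r hr =>
      ⟨hxa' r (hX r hr).1 (hX r hr).2, (hX r hr).1.2.2.symm⟩
    obtain ⟨c1, d1⟩ := hX' x₁ (by simp)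
    obtain ⟨c2, d2⟩ := hX' x₂ (by simp)
    obtain ⟨c3, d3⟩ := hX' x₃ (by simp)
    obtain ⟨c4, d4⟩ := hX' x₄ (by simp)
    obtain ⟨c5, d5⟩ := hX' x₅ (by simp)
    have e : x₁ * a * (x₂ * a) * (x₃ * a) * (x₄ * a) * (x₅ * a) = b := by
      rw [d2.symm.mul_mul_mul_comm, haa, mul_one, ← mul_assoc (x₁ * x₂),
        mul_assoc (x₁ * x₂ * x₃) a (x₄ * a), ← mul_assoc a x₄ a, d4.symm.eq, mul_assoc x₄ a a,
        haa, mul_one, ← mul_assoc (x₁ * x₂ * x₃ * x₄) x₅ a, hp, mul_assoc a b a, hba.eq,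
        ← mul_assoc, haa, one_mul]
    have hyb : Commute y b := e ▸ (((c1.mul_right c2).mul_right c3).mul_right c4).mul_right c5
    have hya : Commute y a := by
      have := h.mul_right hyb
      rwa [mul_assoc, hL.sq hb.1, mul_one] at this
    exact hc hya
  by_contra hc
  rcases hL.cases_pair ha hy (fun e => hc e.symm) with
    ⟨g, hg, hgu⟩ | ⟨e, g, g', he, hye, hge, hg', -⟩
  · -- odd product
    refine hc (alpha a b ha hb y hy h ?_)
    have hgc := hgu _ ((Commute.refl a).mul_left hb.2.2.symm) h.symm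
    have : a * b * y = g * b * g⁻¹ := by
      rw [← hg]
      calc a * b * (g * a * g⁻¹) = g * (a * b * a) * g⁻¹ := by
            rw [← mul_assoc, ← mul_assoc, hgc.eq]; simp only [mul_assoc]
        _ = g * b * g⁻¹ := by rw [hb.2.2.eq, mul_assoc b a a, haa, mul_one]
    exact this ▸ hL.conj g b hb.1
  · refine hc (alpha a e ha he y hy hye ?_)
    rw [← hg']
    exact hL.conj g' a ha

/-- Members not commuting are conjugate by an element commuting with their common centraliser. -/
theorem odd_pair {x y : G} (hx : x ∈ D) (hy : y ∈ D) (hxy : ¬ Commute x y) :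
    ∃ g : G, g * x * g⁻¹ = y ∧ ∀ u, Commute u x → Commute u y → Commute u g := by
  rcases hL.cases_pair hx hy hxy with h | ⟨e, g, g', he, hye, -, -, -⟩
  · exact h
  · exact absurd (hL.pair_comm hx he hy hye).1.symm hxy

/-- A member centralising a product of three commuting members commutes with them. -/
theorem triple_comm {a b e y : G} (ha : a ∈ D) (hb : b ∈ Sset D a) (he : e ∈ Sset D a)
    (hbe : Commute b e) (hne : b ≠ e) (hy : y ∈ D) (h : Commute y (a * b * e)) :
    Commute y a := by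
  by_contra hc
  obtain ⟨g, hg, hgu⟩ := hL.odd_pair ha hy (fun h' => hc h'.symm)
  have hav : Commute a (a * b * e) := ((Commute.refl a).mul_right hb.2.2).mul_right he.2.2
  have hgv : Commute g (a * b * e) := (hgu _ hav.symm h.symm).symm
  obtain ⟨p, hp⟩ : ∃ p, p = g * b * g⁻¹ := ⟨_, rfl⟩
  obtain ⟨q, hq⟩ : ∃ q, q = g * e * g⁻¹ := ⟨_, rfl⟩
  have hpD : p ∈ D := hp ▸ hL.conj g b hb.1
  have hqD : q ∈ D := hq ▸ hL.conj g e he.1
  have hyp : y ≠ p := fun h' => hb.2.1.symm (mul_left_cancel (mul_right_cancel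
    (hg.trans (h'.trans hp))))
  have hyq : y ≠ q := fun h' => he.2.1.symm (mul_left_cancel (mul_right_cancel
    (hg.trans (h'.trans hq))))
  have hpq : p ≠ q := fun h' => hne (mul_left_cancel (mul_right_cancel
    (hp.symm.trans (h'.trans hq))))
  have cyp : Commute y p := by rw [← hg, hp]; exact H17.commute_conj g |>.2 hb.2.2
  have cyq : Commute y q := by rw [← hg, hq]; exact H17.commute_conj g |>.2 he.2.2
  have cpq : Commute p q := by rw [hp, hq]; exact H17.commute_conj g |>.2 hbe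
  have hv : a * b * e = y * p * q := by
    have e1 : g * (a * b * e) * g⁻¹ = a * b * e := by rw [hgv.eq, mul_inv_cancel_right]
    rw [← e1, ← hg, hp, hq]
    group
  obtain ⟨x, hxa, hxb, hxe⟩ := (hL.seen a ha).common b hb e he hbe hne
  have hx := hxa.1
  have hSx := hL.seen x hx
  have hax := sset_symm ha hxa
  have hbx := sset_symm hb.1 hxb
  have hex := sset_symm he.1 hxe
  have hxv : Commute x (a * b * e) :=
    (hxa.2.2.symm.mul_right hxb.2.2.symm).mul_right hxe.2.2.symm
  have hbv : Commute b (a * b * e) := (hb.2.2.symm.mul_right (Commute.refl b)).mul_right hbe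
  have hev : Commute e (a * b * e) :=
    (he.2.2.symm.mul_right hbe.symm).mul_right (Commute.refl e)
  -- `x` commutes with `y`
  have hxy : Commute x y := by
    by_contra hxy
    obtain ⟨k, hk, hku⟩ := hL.odd_pair hy hx (fun h' => hxy h'.symm)
    have hkv : Commute k (a * b * e) := (hku _ h.symm hxv.symm).symm
    obtain ⟨p', hp'⟩ : ∃ p', p' = k * p * k⁻¹ := ⟨_, rfl⟩
    obtain ⟨q', hq'⟩ : ∃ q', q' = k * q * k⁻¹ := ⟨_, rfl⟩
    have hp'D : p' ∈ D := hp' ▸ hL.conj k p hpD
    have hq'D : q' ∈ D := hq' ▸ hL.conj k q hqD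
    have cxp : Commute x p' := by rw [← hk, hp']; exact H17.commute_conj k |>.2 cyp
    have cxq : Commute x q' := by rw [← hk, hq']; exact H17.commute_conj k |>.2 cyq
    have cpq' : Commute p' q' := by rw [hp', hq']; exact H17.commute_conj k |>.2 cpq
    have nxp : p' ≠ x := fun h' => hyp.symm (mul_left_cancel (mul_right_cancel
      (hp'.symm.trans (h'.trans hk.symm))))
    have nxq : q' ≠ x := fun h' => hyq.symm (mul_left_cancel (mul_right_cancel
      (hq'.symm.trans (h'.trans hk.symm))))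
    have npq' : p' ≠ q' := fun h' => hpq (mul_left_cancel (mul_right_cancel
      (hp'.symm.trans (h'.trans hq'))))
    have e1 : x * (a * b * e) = p' * q' := by
      have e2 : k * (a * b * e) * k⁻¹ = a * b * e := by rw [hkv.eq, mul_inv_cancel_right]
      have e3 : a * b * e = x * p' * q' := by
        rw [← e2, ← hk, hp', hq', hv]
        group
      rw [e3, ← mul_assoc, ← mul_assoc, hL.sq hx, one_mul]
    have hpqS : q' ∈ Sset D p' := ⟨hq'D, npq'.symm, cpq'⟩
    have key : ∀ r : G, r ∈ D → Commute r x → Commute r (a * b * e) →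
        Commute p' r ∧ Commute q' r := fun r hr h1 h2 => by
      have := hL.pair_comm hp'D hpqS hr (e1 ▸ h1.mul_right h2)
      exact ⟨this.1.symm, this.2.symm⟩
    refine hSx.triple_pair a hax b hbx e hex p' ⟨hp'D, nxp, cxp⟩ q' ⟨hq'D, nxq, cxq⟩
      hb.2.2 he.2.2 hbe hb.2.1.symm he.2.1.symm hne cpq' npq' ?_ e1
    rintro r (rfl | rfl | rfl)
    · exact key _ ha hax.2.2.symm hav
    · exact key _ hb.1 hbx.2.2.symm hbv
    · exact key _ he.1 hex.2.2.symm hev
  have hxy' : y ≠ x := fun h' => hc (h' ▸ hax.2.2)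
  have hpqS : q ∈ Sset D p := ⟨hqD, hpq.symm, cpq⟩
  have hypq : y * (a * b * e) = p * q := by
    rw [hv, ← mul_assoc, ← mul_assoc, hL.sq hy, one_mul]
  obtain ⟨hxp, hxq⟩ := hL.pair_comm hpD hpqS hx (hypq ▸ hxy.mul_right hxv)
  have nxp : p ≠ x := fun h' => by
    -- then `a` commutes with a pair through `y`
    have e1 : x * (a * b * e) = y * q := by
      rw [hv, ← h', ← mul_assoc, ← mul_assoc, cyp.symm.eq, mul_assoc y, hL.sq hpD, mul_one]
    exact hc (hL.pair_comm hy ⟨hqD, hyq.symm, cyq⟩ ha (e1 ▸ hax.2.2.symm.mul_right hav)).1.symm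
  have nxq : q ≠ x := fun h' => by
    have e1 : x * (a * b * e) = y * p := by
      rw [hv, ← h', ((cyq.symm.mul_right cpq.symm).mul_right (Commute.refl q)).eq, mul_assoc,
        hL.sq hqD, mul_one]
    exact hc (hL.pair_comm hy ⟨hpD, hyp.symm, cyp⟩ ha (e1 ▸ hax.2.2.symm.mul_right hav)).1.symm
  exact hc (hSx.triple_triple a hax b hbx e hex y ⟨hy, hxy', hxy⟩ p ⟨hpD, nxp, hxp⟩ q
    ⟨hqD, nxq, hxq⟩ hb.2.2 he.2.2 hbe hb.2.1.symm he.2.1.symm hne cyp cyq cpq hyp hyq hpq hv)

/-- Two members that do not commute have a common partner, provided one of them has a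
partner. -/
theorem diameter {a y b : G} (ha : a ∈ D) (hy : y ∈ D) (hay : ¬ Commute a y)
    (hb : b ∈ Sset D a) : ∃ x, x ∈ Sset D a ∧ x ∈ Sset D y := by
  have hyy := hL.sq hy
  have haa := hL.sq ha
  obtain ⟨u, hu⟩ : ∃ u, u = a * b := ⟨_, rfl⟩
  have huu : u * u = 1 := by
    rw [hu, hb.2.2.symm.mul_mul_mul_comm, haa, hL.sq hb.1, one_mul]
  have huD : u ∉ D := hu ▸ (hL.seen a ha).pair_out b hb
  have hui : u⁻¹ = u := inv_eq_of_mul_eq_one_right huu
  obtain ⟨r, hr⟩ : ∃ r, r = u * y := ⟨_, rfl⟩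
  obtain ⟨n, hn⟩ : ∃ n, n = orderOf r := ⟨_, rfl⟩
  have hrn : r ^ n = 1 := hn ▸ pow_orderOf_eq_one r
  have hn0 : 0 < n := hn ▸ orderOf_pos r
  have hur : u * r = r⁻¹ * u := by
    rw [hr, mul_inv_rev, hui, hL.inv hy, ← mul_assoc, huu, one_mul, mul_assoc, huu, mul_one]
  have hurk : ∀ k : ℕ, u * r ^ k = (r ^ k)⁻¹ * u := fun k => by
    have : SemiconjBy u r r⁻¹ := hur
    simpa [SemiconjBy, inv_pow] using (this.pow_right k).eq
  have hyu : y = u * r := by rw [hr, ← mul_assoc, huu, one_mul]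
  have hconj : ∀ m : ℕ, r ^ m * y * (r ^ m)⁻¹ = u * (r ^ (2 * m))⁻¹ * r := fun m => by
    have e : r ^ m * u = u * (r ^ m)⁻¹ := by
      rw [eq_mul_inv_iff_mul_eq, mul_assoc, hurk, mul_inv_cancel_left]
    rw [hyu, ← mul_assoc, e, mul_assoc (u * (r ^ m)⁻¹),
      ((Commute.refl r).pow_right m).inv_right.eq, ← mul_assoc, mul_assoc u, ← mul_inv_rev,
      ← pow_add, ← two_mul]
  rcases Nat.even_or_odd n with hev | ⟨m, hm⟩
  · obtain ⟨k, hk⟩ := hev
    obtain ⟨w, hw⟩ : ∃ w, w = r ^ k := ⟨_, rfl⟩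
    have hww : w * w = 1 := by rw [hw, ← pow_add, ← hk, hrn]
    have hwi : w⁻¹ = w := inv_eq_of_mul_eq_one_right hww
    have hwu : Commute w u := by
      have := hurk k
      rw [← hw, hwi] at this
      exact this.symm
    have hwy : Commute w y := by
      rw [hyu]; exact hwu.mul_right (hw ▸ (Commute.refl r).pow_left k)
    have hw1 : w ≠ 1 := fun h => by
      have : n ≤ k := Nat.le_of_dvd (by omega)
        (hn ▸ orderOf_dvd_of_pow_eq_one (x := r) (hw ▸ h))
      omega
    rcases Nat.even_or_odd k with ⟨j, hj⟩ | ⟨m, hm⟩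
    · -- the central involution is a pair through `y`
      have hyw : w * y = r ^ j * y * (r ^ j)⁻¹ := by
        rw [hconj j, show 2 * j = k by omega, ← hw, hwi, hyu, ← mul_assoc, hwu.eq]
      have hwyD : w * y ∈ D := hyw ▸ hL.conj _ y hy
      have hwyS : w * y ∈ Sset D y := ⟨hwyD, fun h => hw1 (mul_eq_right.1 h),
        (hwy.symm.mul_right (Commute.refl y))⟩
      obtain ⟨d, hd, hP⟩ := hL.two _ (pgroup_closure_pair huu hww (a := 1)
        (by rw [pow_one, pow_two, hwu.mul_mul_mul_comm, huu, hww, one_mul]))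
      have cu : Commute d u := (hP u (Subgroup.subset_closure (Or.inl rfl))).symm
      have cw : Commute d w := (hP w (Subgroup.subset_closure (Or.inr rfl))).symm
      have hda := (hL.pair_comm ha hb hd (hu ▸ cu)).1
      have hyw' : y * (w * y) = w := by rw [← mul_assoc, ← hwy.eq, mul_assoc, hyy, mul_one]
      have hdy := (hL.pair_comm hy hwyS hd (hyw'.symm ▸ cw)).1
      exact ⟨d, ⟨hd, fun h => hay (h ▸ hdy), hda.symm⟩,
        ⟨hd, fun h => hay (h ▸ hda).symm, hdy.symm⟩⟩
    · -- otherwise a member centralises the pair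
      have he : u * w = r ^ (m + 1) * y * (r ^ (m + 1))⁻¹ := by
        rw [hconj (m + 1), mul_assoc, show 2 * (m + 1) = k + 1 by omega, pow_succ', ← hw,
          mul_inv_rev, hwi, mul_assoc, inv_mul_cancel, mul_one]
      have heD : u * w ∈ D := he ▸ hL.conj _ y hy
      have heu : Commute (u * w) u := (Commute.refl u).mul_left hwu
      obtain ⟨hea, heb⟩ := hL.pair_comm ha hb heD (hu ▸ heu)
      have hwe : w = u * (u * w) := by rw [← mul_assoc, huu, one_mul]
      by_cases h1 : u * w = a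
      · -- then `b` is a common partner
        have : w = b := by
          rw [hwe, h1, hu, mul_assoc, hb.2.2.symm.eq, ← mul_assoc, haa, one_mul]
        refine ⟨b, hb, hb.1, fun h => hay (h ▸ hb.2.2), ?_⟩
        exact this ▸ hwy.symm
      by_cases h2 : u * w = b
      · have : w = a := by rw [hwe, h2, hu, mul_assoc, hL.sq hb.1, mul_one]
        exact absurd (this ▸ hwy) hay
      refine absurd (hL.triple_comm ha hb (e := u * w) ⟨heD, h1, hea.symm⟩ heb.symm
        (fun h => h2 h.symm) hy ?_).symm hay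
      rw [← hu, ← hwe]
      exact hwy.symm
  · exfalso
    refine huD ?_
    have h2 : r ^ (2 * (m + 1)) = r := by
      rw [show 2 * (m + 1) = n + 1 by omega, pow_succ, hrn, one_mul]
    have := hconj (m + 1)
    rw [h2, inv_mul_cancel_right] at this
    exact this ▸ hL.conj _ y hy

/-- The members form a set of 3-transpositions. -/
theorem three_set (hnb : ∀ a ∈ D, ∃ b, b ∈ Sset D a) : Cfsg.IsThreeTranspositionSet D := by
  refine ⟨hL.ord, fun d hd e he => ?_⟩
  by_cases hc : Commute d e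
  · exact Or.inl ((H17.commute_iff_sq (hL.sq hd) (hL.sq he)).1 hc)
  obtain ⟨b, hb⟩ := hnb d hd
  obtain ⟨x, hxd, hxe⟩ := hL.diameter hd he hc hb
  have hbr := (hL.seen x hxd.1).braid d (sset_symm hd hxd) e (sset_symm he hxe) hc
  refine Or.inr ?_
  have e1 : (d * e) ^ 3 = d * e * d * (e * d * e) := by simp [pow_succ, mul_assoc]
  rw [e1, ← hbr]
  simp only [mul_assoc]
  rw [← mul_assoc d d, hL.sq hd, one_mul, ← mul_assoc e e, hL.sq he, one_mul, hL.sq hd]

end Loc

end Cfsg.Agent.H24.Fi23
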